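import Mathlib
import Cfsg.Agent.Lib.Linear.Card
import Cfsg.Agent.Lib.Linear.SylowP

/-! Sylow subgroups of `GL_n(q)` and `SL_n(q)` for primes larger than `n`. -/

set_option autoImplicit false

namespace CfsgLib.Linear.LargeSylow

open Polynomial

theorem padic_prod {r : ℕ} [Fact r.Prime] {α : Type*} (s : Finset α) (f : α → ℕ) (hf : ∀ a ∈ s, f a ≠ 0) :
    padicValNat r (∏ a ∈ s, f a) = ∑ a ∈ s, padicValNat r (f a) := by
  classical
  induction s using Finset.induction_on with
  | empty => simp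
  | insert a s ha ih =>
    rw [Finset.prod_insert ha, Finset.sum_insert ha, padicValNat.mul (hf a (Finset.mem_insert_self _ _))
      (Finset.prod_ne_zero_iff.2 fun b hb => hf b (Finset.mem_insert_of_mem hb)), ih fun b hb => hf b (Finset.mem_insert_of_mem hb)]

theorem dvd_pow_sub_one_iff {q r : ℕ} (hq : 1 ≤ q) (i : ℕ) : r ∣ q ^ i - 1 ↔ orderOf (q : ZMod r) ∣ i := by
  rw [orderOf_dvd_iff_pow_eq_one, ← Nat.modEq_iff_dvd' (Nat.one_le_pow _ _ hq), ← ZMod.natCast_eq_natCast_iff,
    Nat.cast_one, Nat.cast_pow, eq_comm]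

theorem order_pos {q r : ℕ} [Fact r.Prime] (hrq : ¬ r ∣ q) :
    0 < orderOf (q : ZMod r) ∧ orderOf (q : ZMod r) ∣ r - 1 := by
  have h : (q : ZMod r) ≠ 0 := fun h => hrq ((ZMod.natCast_eq_zero_iff _ _).1 h)
  have h1 := ZMod.pow_card_sub_one_eq_one h
  have hr := (Fact.out : r.Prime).two_le
  exact ⟨orderOf_pos_iff.2 (isOfFinOrder_iff_pow_eq_one.2 ⟨r - 1, by omega, h1⟩), orderOf_dvd_of_pow_eq_one h1⟩

theorem padic_pow_sub_one {q r : ℕ} [Fact r.Prime] (hq : 2 ≤ q) (hrq : ¬ r ∣ q) {i : ℕ} (hi : 0 < i) (hir : i < r) :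
    padicValNat r (q ^ i - 1) =
      if orderOf (q : ZMod r) ∣ i then padicValNat r (q ^ orderOf (q : ZMod r) - 1) else 0 := by
  set d := orderOf (q : ZMod r)
  split_ifs with h
  · obtain ⟨j, rfl⟩ := h
    have hj : j ≠ 0 := by rintro rfl; simp at hi
    have hd : d ≠ 0 := (order_pos hrq).1.ne'
    have hjr : j < r := lt_of_le_of_lt (Nat.le_mul_of_pos_left j (Nat.pos_of_ne_zero hd)) hir
    obtain ⟨x, hx⟩ : ∃ x, q ^ d = x + 1 := ⟨q ^ d - 1, by have := Nat.one_le_pow d q (by omega); omega⟩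
    rw [pow_mul, hx, Nat.add_sub_cancel]
    have hx0 : x ≠ 0 := by
      have : 2 ≤ q ^ d := le_trans hq (Nat.le_self_pow hd q)
      omega
    have hgeo := geom_sum_mul_add x j
    have hval : (x + 1) ^ j - 1 = (∑ l ∈ Finset.range j, (x + 1) ^ l) * x := by rw [← hgeo, Nat.add_sub_cancel]
    have hS : ¬ r ∣ ∑ l ∈ Finset.range j, (x + 1) ^ l := by
      intro hdvd
      have h1 : ((x + 1 : ℕ) : ZMod r) = 1 := by rw [← hx, Nat.cast_pow]; exact pow_orderOf_eq_one _
      rw [← ZMod.natCast_eq_zero_iff, Nat.cast_sum] at hdvd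
      simp only [Nat.cast_pow, h1, one_pow, Finset.sum_const, Finset.card_range, nsmul_eq_mul, mul_one] at hdvd
      rw [ZMod.natCast_eq_zero_iff] at hdvd
      have := Nat.le_of_dvd (by omega) hdvd
      omega
    rw [hval, padicValNat.mul (fun h => hS (by rw [h]; exact dvd_zero r)) hx0, padicValNat.eq_zero_of_not_dvd hS, zero_add]
  · exact padicValNat.eq_zero_of_not_dvd fun h' => h ((dvd_pow_sub_one_iff (by omega) i).1 h')

theorem padic_cyclotomic {q r : ℕ} [Fact r.Prime] (hq : 2 ≤ q) (hrq : ¬ r ∣ q) :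
    padicValNat r ((cyclotomic (orderOf (q : ZMod r)) ℤ).eval (q : ℤ)).natAbs = padicValNat r (q ^ orderOf (q : ZMod r) - 1) := by
  classical
  set d := orderOf (q : ZMod r)
  have hd := (order_pos hrq).1
  set c : ℕ → ℕ := fun e => ((cyclotomic e ℤ).eval (q : ℤ)).natAbs
  have hprod : ∏ e ∈ d.divisors, c e = q ^ d - 1 := by
    have h := congrArg (fun p : ℤ[X] => (p.eval (q : ℤ)).natAbs) (prod_cyclotomic_eq_X_pow_sub_one hd ℤ)
    simp only [eval_prod, eval_sub, eval_pow, eval_X, eval_one] at h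
    rw [show ((q : ℤ) ^ d - 1) = ((q ^ d - 1 : ℕ) : ℤ) by rw [Nat.cast_sub (Nat.one_le_pow _ _ (by omega))]; push_cast; rfl,
      Int.natAbs_natCast] at h
    rw [← h]
    exact (map_prod Int.natAbsHom (fun e => (cyclotomic e ℤ).eval (q : ℤ)) d.divisors).symm
  have hne : ∀ e ∈ d.divisors, c e ≠ 0 := by
    refine Finset.prod_ne_zero_iff.1 ?_
    rw [hprod]
    have : 2 ≤ q ^ d := le_trans hq (Nat.le_self_pow hd.ne' q)
    omega
  show padicValNat r (c d) = _
  rw [← hprod, padic_prod _ _ hne, ← Finset.add_sum_erase _ _ (Nat.mem_divisors_self d hd.ne'), Finset.sum_eq_zero, add_zero]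
  intro e he
  obtain ⟨hed, he⟩ := Finset.mem_erase.1 he
  apply padicValNat.eq_zero_of_not_dvd
  intro hdvd
  have hedvd := Nat.dvd_of_mem_divisors he
  have h0 : 0 < e := Nat.pos_of_mem_divisors he
  have h1 : ((cyclotomic e ℤ).eval (q : ℤ)) ∣ (q : ℤ) ^ e - 1 := by
    simpa using eval_dvd (x := (q : ℤ)) (cyclotomic.dvd_X_pow_sub_one e ℤ)
  have h2 : r ∣ q ^ e - 1 := by
    have h3 : (r : ℤ) ∣ (q : ℤ) ^ e - 1 := (Int.natCast_dvd.2 hdvd).trans h1
    rw [← Int.natCast_dvd_natCast, Nat.cast_sub (Nat.one_le_pow _ _ (by omega))]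
    push_cast
    exact h3
  exact hed (Nat.dvd_antisymm hedvd ((dvd_pow_sub_one_iff (by omega) e).1 h2))

variable {F : Type*} [Field F] [Fintype F]

theorem padic_card_GL {r : ℕ} [Fact r.Prime] {n : ℕ} (hn : n < r) (hrq : ¬ r ∣ Fintype.card F) :
    padicValNat r (Nat.card (GL (Fin n) F)) =
      n / orderOf (Fintype.card F : ZMod r) * padicValNat r (Fintype.card F ^ orderOf (Fintype.card F : ZMod r) - 1) := by
  classical
  set q := Fintype.card F
  have hq : 2 ≤ q := Fintype.one_lt_card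
  have hne : ∀ i ∈ (Finset.univ : Finset (Fin n)), q ^ (n - (i : ℕ)) - 1 ≠ 0 := by
    intro i _
    have : 2 ≤ q ^ (n - (i : ℕ)) := le_trans hq (Nat.le_self_pow (by omega) q)
    omega
  rw [CfsgLib.Linear.SylowP.card_GL_split, padicValNat.mul (pow_ne_zero _ (by omega)) (Finset.prod_ne_zero_iff.2 hne),
    padicValNat.eq_zero_of_not_dvd (fun h => hrq ((Fact.out : r.Prime).dvd_of_dvd_pow h)), zero_add, padic_prod _ _ hne,
    Fin.sum_univ_eq_sum_range (fun i => padicValNat r (q ^ (n - i) - 1)) n, ← Finset.sum_range_reflect]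
  have h1 : ∀ j ∈ Finset.range n, padicValNat r (q ^ (n - (n - 1 - j)) - 1) =
      if orderOf (q : ZMod r) ∣ j + 1 then padicValNat r (q ^ orderOf (q : ZMod r) - 1) else 0 := by
    intro j hj
    rw [Finset.mem_range] at hj
    rw [show n - (n - 1 - j) = j + 1 by omega]
    exact padic_pow_sub_one hq hrq (Nat.succ_pos j) (by omega)
  rw [Finset.sum_congr rfl h1, ← Finset.sum_filter, Finset.sum_const, smul_eq_mul, Nat.card_multiples]

theorem exists_torus_hom {p : ℕ} [Fact p.Prime] [CharP F p] {n d N k : ℕ} (hd : 0 < d) (hkd : k * d ≤ n)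
    (hN : N ∣ Fintype.card F ^ d - 1) (hN0 : 0 < N) :
    ∃ f : (Fin k → Multiplicative (ZMod N)) →* GL (Fin n) F, Function.Injective f := by
  classical
  haveI : NeZero d := ⟨hd.ne'⟩
  let L := FiniteField.Extension F p d
  haveI : Finite L := Module.finite_of_finite F
  have hcard : Nat.card Lˣ = Fintype.card F ^ d - 1 := by
    rw [Nat.card_units, FiniteField.natCard_extension, Nat.card_eq_fintype_card]
  obtain ⟨g, hg⟩ := IsCyclic.exists_generator (α := Lˣ)
  have hgo : orderOf g = Fintype.card F ^ d - 1 := by rw [orderOf_eq_card_of_forall_mem_zpowers hg, hcard]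
  obtain ⟨c, hc⟩ := hN
  let ζ := g ^ c
  have hc0 : 0 < c := by
    rcases Nat.eq_zero_or_pos c with h | h
    · rw [h, mul_zero] at hc
      have : 2 ≤ Fintype.card F ^ d := le_trans Fintype.one_lt_card (Nat.le_self_pow hd.ne' _)
      omega
    · exact h
  have hζ : orderOf ζ = N := by
    rw [orderOf_pow' g hc0.ne', hgo, hc, Nat.gcd_mul_left_left, Nat.mul_div_cancel _ hc0]
  haveI : IsCyclic (Subgroup.zpowers ζ) := Subgroup.isCyclic_zpowers ζ
  have hNc : Nat.card (Subgroup.zpowers ζ) = N := by rw [Nat.card_zpowers, hζ]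
  let C : Multiplicative (ZMod N) ≃* Subgroup.zpowers ζ :=
    (AddEquiv.toMultiplicative (ZMod.ringEquivCongr hNc.symm).toAddEquiv).trans
      (zmodCyclicMulEquiv (inferInstance : IsCyclic (Subgroup.zpowers ζ)))
  let ι : Multiplicative (ZMod N) →* L :=
    (Units.coeHom L).comp ((Subgroup.zpowers ζ).subtype.comp C.toMonoidHom)
  have hι : Function.Injective ι := fun a b h => C.injective (Subtype.ext (Units.ext h))
  let bas : Module.Basis (Fin d) F L := (Module.finBasis F L).reindex (finCongr (FiniteField.finrank_extension F p d))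
  let lm : L →ₐ[F] Matrix (Fin d) (Fin d) F := Algebra.leftMulMatrix bas
  let big : (Fin k → Multiplicative (ZMod N)) →* Matrix (Fin d × Fin k) (Fin d × Fin k) F :=
    (Matrix.blockDiagonalRingHom (Fin d) (Fin k) F).toMonoidHom.comp
      { toFun := fun x i => lm (ι (x i))
        map_one' := funext fun i => by simp
        map_mul' := fun x y => funext fun i => by simp [map_mul] }
  let e : (Fin d × Fin k) ⊕ Fin (n - k * d) ≃ Fin n :=
    ((finProdFinEquiv).sumCongr (Equiv.refl _)).trans (finSumFinEquiv.trans (finCongr (by rw [mul_comm d k]; omega)))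
  let ext1 : Matrix (Fin d × Fin k) (Fin d × Fin k) F →* Matrix ((Fin d × Fin k) ⊕ Fin (n - k * d)) ((Fin d × Fin k) ⊕ Fin (n - k * d)) F :=
    { toFun := fun M => Matrix.fromBlocks M 0 0 1
      map_one' := Matrix.fromBlocks_one
      map_mul' := fun M M' => by rw [Matrix.fromBlocks_multiply]; simp }
  let full : (Fin k → Multiplicative (ZMod N)) →* Matrix (Fin n) (Fin n) F :=
    ((Matrix.reindexAlgEquiv F F e).toMulEquiv.toMonoidHom.comp ext1).comp big
  refine ⟨full.toHomUnits, fun x y h => funext fun i => ?_⟩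
  have h1 : full x = full y := congrArg Units.val h
  have h2 := (Matrix.reindexAlgEquiv F F e).injective h1
  have h3 : big x = big y := (Matrix.fromBlocks_inj.1 h2).1
  have h4 := congrFun (Matrix.blockDiagonal_injective h3) i
  exact hι (Algebra.leftMulMatrix_injective bas h4)

end CfsgLib.Linear.LargeSylow
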