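import Mathlib
import Cfsg.Prelude.Def_ClassicalGeometry

/-! Maximal parabolic subgroups of the general linear group. -/
set_option autoImplicit false
open scoped MatrixGroups Matrix

namespace CfsgLib.Linear.Parabolic

variable {F : Type*} [Field F] [Finite F] {n : ℕ}

/-- the coordinate subspace -/
abbrev W (F : Type*) [Field F] (n k : ℕ) : Set (Fin n → F) := {v | ∀ i : Fin n, k ≤ (i : ℕ) → v i = 0}

/-- its stabiliser -/
abbrev P (F : Type*) [Field F] (n k : ℕ) : Subgroup (GL (Fin n) F) := Cfsg.stabilizing (Cfsg.glToMat (Fin n) F) (W F n k)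

theorem mem_iff {k : ℕ} {g : GL (Fin n) F} : g ∈ P F n k ↔
    ∀ i j : Fin n, k ≤ (i : ℕ) → (j : ℕ) < k → (g : Matrix (Fin n) (Fin n) F) i j = 0 := by
  constructor
  · intro h i j hi hj
    have := (h (Pi.single j 1)).1 (fun l hl => Pi.single_eq_of_ne (fun e => by rw [e] at hl; omega) _) i hi
    simpa using this
  · intro h
    have h1 : ∀ v ∈ W F n k, (g : Matrix (Fin n) (Fin n) F) *ᵥ v ∈ W F n k := fun v hv i hi => by
      show ∑ j, (g : Matrix (Fin n) (Fin n) F) i j * v j = 0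
      refine Finset.sum_eq_zero fun j _ => ?_
      rcases Nat.lt_or_ge (j : ℕ) k with hj | hj
      · rw [h i j hi hj, zero_mul]
      · rw [hv j hj, mul_zero]
    intro v
    refine ⟨h1 v, fun hv => ?_⟩
    let f : W F n k → W F n k := fun u => ⟨(g : Matrix (Fin n) (Fin n) F) *ᵥ u.1, h1 u.1 u.2⟩
    have hf : Function.Injective f := fun u u' e =>
      Subtype.ext (Matrix.mulVec_injective_iff_isUnit.2 g.isUnit (congrArg Subtype.val e))
    obtain ⟨u, hu⟩ := (Finite.injective_iff_surjective.1 hf) ⟨_, hv⟩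
    rw [← Matrix.mulVec_injective_iff_isUnit.2 g.isUnit (congrArg Subtype.val hu)]
    exact u.2

theorem det_updateCol (j : Fin n) (v : Fin n → F) : ((1 : Matrix (Fin n) (Fin n) F).updateCol j v).det = v j := by
  rw [← Matrix.cramer_apply, Matrix.cramer_one]; rfl

/-- moving a basis vector inside the parabolic subgroup -/
theorem exists_move {k : ℕ} (j : Fin n) {v : Fin n → F} (hj : v j ≠ 0) (hv : (j : ℕ) < k → v ∈ W F n k) :
    ∃ h ∈ P F n k, (h : Matrix (Fin n) (Fin n) F) *ᵥ Pi.single j 1 = v := by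
  refine ⟨Matrix.GeneralLinearGroup.mkOfDetNeZero ((1 : Matrix (Fin n) (Fin n) F).updateCol j v)
    (by rwa [det_updateCol]), mem_iff.2 fun i l hi hl => ?_, ?_⟩
  · show (1 : Matrix (Fin n) (Fin n) F).updateCol j v i l = 0
    rcases eq_or_ne l j with rfl | h
    · rw [Matrix.updateCol_self]; exact hv hl i hi
    · rw [Matrix.updateCol_ne h, Matrix.one_apply_ne fun e => by rw [e] at hi; omega]
  · show (1 : Matrix (Fin n) (Fin n) F).updateCol j v *ᵥ Pi.single j 1 = v
    ext i; simp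

/-- transitivity off the subspace -/
theorem transitive_out {k : ℕ} {u v : Fin n → F} (hu : u ∉ W F n k) (hv : v ∉ W F n k) :
    ∃ h ∈ P F n k, (h : Matrix (Fin n) (Fin n) F) *ᵥ u = v := by
  classical
  simp only [Set.mem_ofPred_eq, not_forall] at hu hv
  obtain ⟨i, hi, hui⟩ := hu
  obtain ⟨j, hj, hvj⟩ := hv
  obtain ⟨a, ha, hau⟩ := exists_move (k := k) i hui (fun h => absurd h (not_lt.2 hi))
  obtain ⟨b, hb, hbv⟩ := exists_move (k := k) j hvj (fun h => absurd h (not_lt.2 hj))
  obtain ⟨c, hc, hcij⟩ : ∃ c ∈ P F n k, (c : Matrix (Fin n) (Fin n) F) *ᵥ Pi.single i 1 = Pi.single j 1 := by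
    rcases eq_or_ne i j with rfl | hne
    · exact ⟨1, one_mem _, by rw [Units.val_one, Matrix.one_mulVec]⟩
    · have hw : (Pi.single j 1 + Pi.single i 1 : Fin n → F) i ≠ 0 := by simp [hne]
      obtain ⟨d, hd, hdv⟩ := exists_move (k := k) i (v := (Pi.single j 1 + Pi.single i 1 : Fin n → F)) hw
        (fun h => absurd h (not_lt.2 hi))
      have hw' : (Pi.single j 1 + Pi.single i 1 : Fin n → F) j ≠ 0 := by simp [hne.symm]
      obtain ⟨d', hd', hdv'⟩ := exists_move (k := k) j (v := (Pi.single j 1 + Pi.single i 1 : Fin n → F)) hw'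
        (fun h => absurd h (not_lt.2 hj))
      refine ⟨d'⁻¹ * d, mul_mem (inv_mem hd') hd, ?_⟩
      rw [Units.val_mul, ← Matrix.mulVec_mulVec, hdv, ← hdv', Matrix.mulVec_mulVec, Units.inv_mul, Matrix.one_mulVec]
  refine ⟨b * c * a⁻¹, mul_mem (mul_mem hb hc) (inv_mem ha), ?_⟩
  rw [Units.val_mul, Units.val_mul, ← hau, Matrix.mulVec_mulVec, Matrix.mul_assoc, Units.inv_mul, Matrix.mul_one,
    ← Matrix.mulVec_mulVec, hcij, hbv]

/-- an elementary matrix as an invertible matrix -/
def tv (i j : Fin n) (h : i ≠ j) (c : F) : GL (Fin n) F :=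
  ⟨Matrix.transvection i j c, Matrix.transvection i j (-c),
    (Matrix.transvection_mul_transvection_same i j h c (-c)).trans (by rw [add_neg_cancel, Matrix.transvection_zero]),
    (Matrix.transvection_mul_transvection_same i j h (-c) c).trans (by rw [neg_add_cancel, Matrix.transvection_zero])⟩

theorem isCoatom (k : ℕ) (hk0 : 0 < k) (hkn : k < n) : IsCoatom (P F n k) := by
  classical
  refine ⟨fun h => ?_, fun K hK => ?_⟩
  · have := mem_iff.1 (h.ge (Subgroup.mem_top (tv (⟨k, hkn⟩ : Fin n) ⟨0, by omega⟩ (by simp [Fin.ext_iff]; omega) (1 : F))))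
      ⟨k, hkn⟩ ⟨0, by omega⟩ le_rfl hk0
    simp [tv, Matrix.transvection, Matrix.one_apply, Fin.ext_iff, hk0.ne'] at this
  obtain ⟨g, hgK, hgP⟩ := SetLike.exists_of_lt hK
  obtain ⟨i₀, j₀, hi₀, hj₀, hne⟩ : ∃ i j : Fin n, k ≤ (i : ℕ) ∧ (j : ℕ) < k ∧ (g : Matrix (Fin n) (Fin n) F) i j ≠ 0 := by
    by_contra! h
    exact hgP (mem_iff.2 h)
  have hgw : (g : Matrix (Fin n) (Fin n) F) *ᵥ Pi.single j₀ 1 ∉ W F n k := fun h => hne (by simpa using h i₀ hi₀)
  -- all transvections with centre outside the subspace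
  have low : ∀ (i : Fin n), k ≤ (i : ℕ) → ∀ (j : Fin n) (hij : i ≠ j) (c : F), tv i j hij c ∈ K := by
    intro i hi j hij c
    obtain ⟨h, hh, hhv⟩ := transitive_out hgw (v := (Pi.single i 1 : Fin n → F)) (fun h => (one_ne_zero (α := F)) (by simpa using h i hi))
    set x := h * g
    have hxe : (x : Matrix (Fin n) (Fin n) F) *ᵥ Pi.single j₀ 1 = Pi.single i 1 := by
      rw [Units.val_mul, ← Matrix.mulVec_mulVec, hhv]
    set X : Matrix (Fin n) (Fin n) F := (x : Matrix (Fin n) (Fin n) F)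
    set X' : Matrix (Fin n) (Fin n) F := ((x⁻¹ : GL (Fin n) F) : Matrix (Fin n) (Fin n) F)
    have hxx : X * X' = 1 := x.mul_inv
    set t : GL (Fin n) F := x⁻¹ * tv i j hij c * x
    have htP : t ∈ P F n k := by
      refine mem_iff.2 fun a b ha hb => ?_
      show (X' * Matrix.transvection i j c * X) a b = 0
      rw [Matrix.transvection, mul_add, mul_one, add_mul, show X' * X = 1 from x.inv_mul, Matrix.add_apply,
        Matrix.one_apply_ne (fun e => by rw [e] at ha; omega), zero_add]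
      have hcol : X' *ᵥ Pi.single i 1 = Pi.single j₀ 1 := by
        rw [← hxe, Matrix.mulVec_mulVec, show X' * X = 1 from x.inv_mul, Matrix.one_mulVec]
      have hz : ∀ l, (X' * Matrix.single i j c) a l = 0 := fun l => by
        rw [Matrix.mul_apply, Finset.sum_eq_single i (fun m _ hm => by simp [Matrix.single, Ne.symm hm]) (by simp)]
        have := congrFun hcol a
        rw [Matrix.mulVec_single_one] at this
        rw [show X' a i = 0 from this.trans (Pi.single_eq_of_ne (fun e => by rw [e] at ha; omega) _), zero_mul]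
      rw [Matrix.mul_apply]
      exact Finset.sum_eq_zero fun l _ => by rw [hz, zero_mul]
    have hxK : x ∈ K := mul_mem (hK.le hh) hgK
    rw [show tv i j hij c = x * t * x⁻¹ by simp only [t]; group]
    exact mul_mem (mul_mem hxK (hK.le htP)) (inv_mem hxK)
  rw [eq_top_iff]
  intro y _
  have key : ∀ M : Matrix (Fin n) (Fin n) F, M.det ≠ 0 → ∃ z ∈ K, (z : Matrix (Fin n) (Fin n) F) = M := by
    intro M hM
    refine Matrix.diagonal_transvection_induction_of_det_ne_zero
      (fun M => ∃ z ∈ K, (z : Matrix (Fin n) (Fin n) F) = M) M hM ?_ ?_ ?_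
    · intro D hD
      refine ⟨Matrix.GeneralLinearGroup.mkOfDetNeZero _ hD, hK.le (mem_iff.2 fun i j hi hj => ?_), rfl⟩
      exact Matrix.diagonal_apply_ne _ fun e => by rw [e] at hi; omega
    · rintro ⟨i, j, hij, c⟩
      refine ⟨tv i j hij c, ?_, rfl⟩
      rcases Nat.lt_or_ge (i : ℕ) k with hi | hi
      · refine hK.le (mem_iff.2 fun a b ha hb => ?_)
        show Matrix.transvection i j c a b = 0
        have hab : a ≠ b := fun e => by rw [e] at ha; omega
        have hia : i ≠ a := fun e => by rw [e] at hi; omega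
        simp [Matrix.transvection, Matrix.one_apply_ne hab, Matrix.single, hia]
      · exact low i hi j hij c
    · rintro A B - - ⟨a, ha, rfl⟩ ⟨b, hb, rfl⟩
      exact ⟨a * b, mul_mem ha hb, rfl⟩
  obtain ⟨z, hz, e⟩ := key y (y.isUnit.map Matrix.detMonoidHom).ne_zero
  rwa [← Units.ext e]

omit [Finite F] in
theorem invariant_cases {k : ℕ} (hk : k ≤ n) [Finite F] (U : Submodule F (Fin n → F))
    (hU : ∀ h ∈ P F n k, ∀ u ∈ U, (h : Matrix (Fin n) (Fin n) F) *ᵥ u ∈ U) :
    U = ⊥ ∨ (U : Set (Fin n → F)) = W F n k ∨ U = ⊤ := by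
  classical
  by_cases hout : ∃ u ∈ U, u ∉ W F n k
  · obtain ⟨u, hu, huW⟩ := hout
    refine Or.inr (Or.inr (eq_top_iff.2 fun v _ => ?_))
    have hall : ∀ w, w ∉ W F n k → w ∈ U := fun w hw => by
      obtain ⟨h, hh, rfl⟩ := transitive_out huW hw; exact hU h hh u hu
    by_cases hv : v ∈ W F n k
    · have : v + u ∉ W F n k := fun h => huW fun i hi => by simpa [hv i hi] using h i hi
      simpa using sub_mem (hall _ this) hu
    · exact hall v hv
  push Not at hout
  by_cases hbot : U = ⊥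
  · exact Or.inl hbot
  obtain ⟨u, hu, hu0⟩ := Submodule.exists_mem_ne_zero_of_ne_bot hbot
  refine Or.inr (Or.inl (Set.Subset.antisymm hout fun v hv => ?_))
  obtain ⟨j, hj⟩ := Function.ne_iff.1 hu0
  have hjk : (j : ℕ) < k := Nat.lt_of_not_le fun h => hj (hout u hu j h)
  have hall : ∀ w ∈ W F n k, w j ≠ 0 → w ∈ U := fun w hw hwj => by
    obtain ⟨a, ha, hau⟩ := exists_move (k := k) j (v := u) hj (fun _ => hout u hu)
    obtain ⟨b, hb, hbw⟩ := exists_move (k := k) j (v := w) hwj (fun _ => hw)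
    have := hU _ (mul_mem hb (inv_mem ha)) u hu
    rwa [Units.val_mul, ← hau, Matrix.mulVec_mulVec, Matrix.mul_assoc, Units.inv_mul, Matrix.mul_one, hbw] at this
  by_cases hvj : v j = 0
  · have h1 : v + u ∈ W F n k := fun i hi => by simp [hv i hi, hout u hu i hi]
    simpa using sub_mem (hall _ h1 (by simpa [hvj] using hj)) hu
  · exact hall v hv hvj

omit [Finite F] in
theorem natCard_W {k : ℕ} (hk : k ≤ n) : Nat.card (W F n k) = Nat.card F ^ k := by
  rw [show Nat.card F ^ k = Nat.card (Fin k → F) by rw [Nat.card_fun, Nat.card_fin]]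
  refine Nat.card_congr ⟨fun v i => v.1 (Fin.castLE hk i),
    fun w => ⟨fun i => if h : (i : ℕ) < k then w ⟨i, h⟩ else 0, fun i hi => dif_neg (not_lt.2 hi)⟩,
    fun v => Subtype.ext (funext fun i => ?_), fun w => funext fun i => ?_⟩
  · by_cases h : (i : ℕ) < k
    · simp [h]
    · simp [h, v.2 i (not_lt.1 h)]
  · simp

theorem not_conj (k : ℕ) (hk0 : 0 < k) (hkn : k < n) (h2 : 2 * k ≠ n) (g : GL (Fin n) F) :
    (P F n k).map (MulAut.conj g).toMonoidHom ≠ P F n (n - k) := by
  classical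
  intro h
  let U : Submodule F (Fin n → F) :=
    { carrier := {v | ((g⁻¹ : GL (Fin n) F) : Matrix (Fin n) (Fin n) F) *ᵥ v ∈ W F n k}
      add_mem' := fun {a b} ha hb i hi => by rw [Matrix.mulVec_add, Pi.add_apply, ha i hi, hb i hi, add_zero]
      zero_mem' := fun i _ => by simp
      smul_mem' := fun c {a} ha i hi => by rw [Matrix.mulVec_smul, Pi.smul_apply, ha i hi, smul_zero] }
  have hinv : ∀ p ∈ P F n (n - k), ∀ u ∈ U, (p : Matrix (Fin n) (Fin n) F) *ᵥ u ∈ U := by
    intro p hp u hu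
    rw [← h] at hp
    obtain ⟨q, hq, rfl⟩ := hp
    show ((g⁻¹ : GL (Fin n) F) : Matrix (Fin n) (Fin n) F) *ᵥ (((g * q * g⁻¹ : GL (Fin n) F) : Matrix (Fin n) (Fin n) F) *ᵥ u) ∈ W F n k
    rw [Matrix.mulVec_mulVec, ← Units.val_mul, show g⁻¹ * (g * q * g⁻¹) = q * g⁻¹ by group, Units.val_mul,
      ← Matrix.mulVec_mulVec]
    exact (hq _).1 hu
  have hcard : Nat.card U = Nat.card F ^ k := by
    rw [← natCard_W hkn.le]
    refine Nat.card_congr ⟨fun v => ⟨_, v.2⟩, fun w => ⟨(g : Matrix (Fin n) (Fin n) F) *ᵥ w.1, ?_⟩,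
      fun v => Subtype.ext ?_, fun w => Subtype.ext ?_⟩
    · show ((g⁻¹ : GL (Fin n) F) : Matrix (Fin n) (Fin n) F) *ᵥ ((g : Matrix (Fin n) (Fin n) F) *ᵥ w.1) ∈ W F n k
      rw [Matrix.mulVec_mulVec, Units.inv_mul, Matrix.one_mulVec]; exact w.2
    · simp [Matrix.mulVec_mulVec]
    · simp [Matrix.mulVec_mulVec]
  have hF : 1 < Nat.card F := Finite.one_lt_card
  rcases invariant_cases (Nat.sub_le n k) U hinv with e | e | e
  · rw [e, Nat.card_unique] at hcard
    have := Nat.one_lt_pow hk0.ne' hF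
    omega
  · have e' : Nat.card U = Nat.card (W F n (n - k)) := Nat.card_congr (Equiv.setCongr e)
    rw [natCard_W (Nat.sub_le n k), hcard] at e'
    have := Nat.pow_right_injective hF e'
    omega
  · rw [e, Nat.card_congr (Submodule.topEquiv (R := F) (M := Fin n → F)).toEquiv, Nat.card_fun, Nat.card_fin] at hcard
    have := Nat.pow_right_injective hF hcard
    omega

/-- inverse transpose followed by reversal -/
noncomputable def dual : GL (Fin n) F ≃* GL (Fin n) F where
  toFun g := ⟨((g⁻¹ : GL (Fin n) F) : Matrix (Fin n) (Fin n) F).transpose.submatrix Fin.rev Fin.rev,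
    (g : Matrix (Fin n) (Fin n) F).transpose.submatrix Fin.rev Fin.rev,
    by rw [← Matrix.submatrix_mul _ _ _ _ _ Fin.rev_bijective, ← Matrix.transpose_mul, Units.mul_inv, Matrix.transpose_one,
      Matrix.submatrix_one _ Fin.rev_injective],
    by rw [← Matrix.submatrix_mul _ _ _ _ _ Fin.rev_bijective, ← Matrix.transpose_mul, Units.inv_mul, Matrix.transpose_one,
      Matrix.submatrix_one _ Fin.rev_injective]⟩
  invFun g := ⟨((g⁻¹ : GL (Fin n) F) : Matrix (Fin n) (Fin n) F).transpose.submatrix Fin.rev Fin.rev,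
    (g : Matrix (Fin n) (Fin n) F).transpose.submatrix Fin.rev Fin.rev,
    by rw [← Matrix.submatrix_mul _ _ _ _ _ Fin.rev_bijective, ← Matrix.transpose_mul, Units.mul_inv, Matrix.transpose_one,
      Matrix.submatrix_one _ Fin.rev_injective],
    by rw [← Matrix.submatrix_mul _ _ _ _ _ Fin.rev_bijective, ← Matrix.transpose_mul, Units.inv_mul, Matrix.transpose_one,
      Matrix.submatrix_one _ Fin.rev_injective]⟩
  left_inv g := Units.ext (by ext i j; simp)
  right_inv g := Units.ext (by ext i j; simp)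
  map_mul' g h := Units.ext (by
    show ((g * h)⁻¹ : GL (Fin n) F).1.transpose.submatrix Fin.rev Fin.rev = _
    rw [mul_inv_rev, Units.val_mul, Matrix.transpose_mul, Matrix.submatrix_mul _ _ _ _ _ Fin.rev_bijective]
    rfl)

theorem dual_mem (k : ℕ) (hk : k ≤ n) (g : GL (Fin n) F) : dual g ∈ P F n (n - k) ↔ g ∈ P F n k := by
  have key : ∀ m, m ≤ n → ∀ x : GL (Fin n) F, x ∈ P F n m → dual x ∈ P F n (n - m) := by
    intro m hm x hx
    refine mem_iff.2 fun i j hi hj => ?_
    show ((x⁻¹ : GL (Fin n) F) : Matrix (Fin n) (Fin n) F) (Fin.rev j) (Fin.rev i) = 0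
    exact mem_iff.1 (inv_mem hx) _ _ (by rw [Fin.val_rev]; omega) (by rw [Fin.val_rev]; omega)
  refine ⟨fun h => ?_, key k hk g⟩
  have := key (n - k) (Nat.sub_le n k) _ h
  rwa [show n - (n - k) = k by omega, show dual (dual g) = g from dual.left_inv g] at this

theorem nonempty_equiv (k : ℕ) (hk : k ≤ n) : Nonempty (P F n k ≃* P F n (n - k)) := by
  refine ⟨(dual.subgroupMap (P F n k)).trans (MulEquiv.subgroupCongr ?_)⟩
  ext g
  constructor
  · rintro ⟨x, hx, rfl⟩; exact (dual_mem k hk x).2 hx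
  · intro hg
    exact ⟨dual.symm g, (dual_mem k hk _).1 (by rwa [dual.apply_symm_apply]), dual.apply_symm_apply g⟩

theorem card_P (k : ℕ) (hk : k ≤ n) : Nat.card (P F n k) =
    Nat.card (GL (Fin k) F) * Nat.card (GL (Fin (n - k)) F) * Nat.card F ^ (k * (n - k)) := by
  classical
  let e : Fin n ≃ Fin k ⊕ Fin (n - k) := (finCongr (by omega)).trans finSumFinEquiv.symm
  have hl : ∀ a : Fin k, ((e.symm (Sum.inl a) : Fin n) : ℕ) = a := fun a => by simp [e]
  have hr : ∀ a : Fin (n - k), ((e.symm (Sum.inr a) : Fin n) : ℕ) = k + a := fun a => by simp [e]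
  let blk : GL (Fin n) F → Matrix (Fin k ⊕ Fin (n - k)) (Fin k ⊕ Fin (n - k)) F :=
    fun g => (g : Matrix (Fin n) (Fin n) F).submatrix e.symm e.symm
  have h21 : ∀ g ∈ P F n k, (blk g).toBlocks₂₁ = 0 := fun g hg => by
    ext a b
    exact mem_iff.1 hg _ _ (by rw [hr]; omega) (by rw [hl]; exact b.2)
  have hdet : ∀ g ∈ P F n k, (blk g).toBlocks₁₁.det ≠ 0 ∧ (blk g).toBlocks₂₂.det ≠ 0 := fun g hg => by
    rw [← mul_ne_zero_iff, ← Matrix.det_fromBlocks_zero₂₁ _ (blk g).toBlocks₁₂, ← h21 g hg, Matrix.fromBlocks_toBlocks,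
      Matrix.det_submatrix_equiv_self]
    exact (g.isUnit.map Matrix.detMonoidHom).ne_zero
  let Φ : P F n k ≃ GL (Fin k) F × GL (Fin (n - k)) F × Matrix (Fin k) (Fin (n - k)) F :=
    { toFun := fun g => (Matrix.GeneralLinearGroup.mkOfDetNeZero _ (hdet g.1 g.2).1,
        Matrix.GeneralLinearGroup.mkOfDetNeZero _ (hdet g.1 g.2).2, (blk g.1).toBlocks₁₂)
      invFun := fun x => ⟨Matrix.GeneralLinearGroup.mkOfDetNeZero
          ((Matrix.fromBlocks x.1.1 x.2.2 0 x.2.1.1).submatrix e e) (by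
            rw [Matrix.det_submatrix_equiv_self, Matrix.det_fromBlocks_zero₂₁]
            exact mul_ne_zero (x.1.isUnit.map Matrix.detMonoidHom).ne_zero (x.2.1.isUnit.map Matrix.detMonoidHom).ne_zero),
        mem_iff.2 fun i j hi hj => by
          show Matrix.fromBlocks x.1.1 x.2.2 0 x.2.1.1 (e i) (e j) = 0
          rcases h1 : e i with a | a
          · have := hl a; rw [← h1, e.symm_apply_apply] at this; omega
          rcases h2 : e j with b | b
          · rfl
          · have := hr b; rw [← h2, e.symm_apply_apply] at this; omega⟩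
      left_inv := fun g => Subtype.ext (Units.ext (by
        show (Matrix.fromBlocks (blk g.1).toBlocks₁₁ (blk g.1).toBlocks₁₂ 0 (blk g.1).toBlocks₂₂).submatrix e e = g.1.1
        rw [← h21 g.1 g.2, Matrix.fromBlocks_toBlocks]
        ext i j; simp [blk]))
      right_inv := fun x => by
        have hb : ((Matrix.fromBlocks x.1.1 x.2.2 0 x.2.1.1).submatrix e e).submatrix e.symm e.symm =
            Matrix.fromBlocks x.1.1 x.2.2 0 x.2.1.1 := by ext i j; simp
        refine Prod.ext (Units.ext ?_) (Prod.ext (Units.ext ?_) ?_)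
        · show (((Matrix.fromBlocks x.1.1 x.2.2 0 x.2.1.1).submatrix e e).submatrix e.symm e.symm).toBlocks₁₁ = _
          rw [hb, Matrix.toBlocks_fromBlocks₁₁]
        · show (((Matrix.fromBlocks x.1.1 x.2.2 0 x.2.1.1).submatrix e e).submatrix e.symm e.symm).toBlocks₂₂ = _
          rw [hb, Matrix.toBlocks_fromBlocks₂₂]
        · show (((Matrix.fromBlocks x.1.1 x.2.2 0 x.2.1.1).submatrix e e).submatrix e.symm e.symm).toBlocks₁₂ = _
          rw [hb, Matrix.toBlocks_fromBlocks₁₂] }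
  rw [Nat.card_congr Φ, Nat.card_prod, Nat.card_prod, mul_assoc]
  congr 2
  rw [show Matrix (Fin k) (Fin (n - k)) F = (Fin k → Fin (n - k) → F) from rfl, Nat.card_fun, Nat.card_fun, Nat.card_fin,
    Nat.card_fin, ← pow_mul, mul_comm]

end CfsgLib.Linear.Parabolic
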