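import Mathlib

/-! Fixed vectors of an injective Frobenius-semilinear map over an algebraically closed field span the space. -/

set_option autoImplicit false

namespace CfsgLib.Linear.SemilinearFixed

open Polynomial

theorem span_fixed {K : Type*} [Field K] [IsAlgClosed K] {V : Type*} [AddCommGroup V] [Module K V]
    [FiniteDimensional K V] {q : ℕ} (hq : 2 ≤ q) (hadd : ∀ x y : K, (x + y) ^ q = x ^ q + y ^ q)
    (Φ : V →+ V) (hΦ : ∀ (c : K) (v : V), Φ (c • v) = c ^ q • Φ v) (hinj : Function.Injective Φ) :
    Submodule.span K {v | Φ v = v} = ⊤ := by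
  classical
  set S := Submodule.span K {v | Φ v = v}
  have hroot : ∀ a : K, ∃ b : K, b ^ q = a := fun a => IsAlgClosed.exists_pow_nat_eq a (by omega)
  have hzero : (0 : K) ^ q = 0 := zero_pow (by omega)
  -- preimages inside the span
  have hpre : ∀ s ∈ S, ∃ t ∈ S, Φ t = s := by
    intro s hs
    induction hs using Submodule.span_induction with
    | mem x hx => exact ⟨x, Submodule.subset_span hx, hx⟩
    | zero => exact ⟨0, S.zero_mem, map_zero _⟩
    | add x y _ _ hx hy =>
      obtain ⟨t, ht, rfl⟩ := hx
      obtain ⟨u, hu, rfl⟩ := hy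
      exact ⟨t + u, S.add_mem ht hu, map_add _ _ _⟩
    | smul a x _ hx =>
      obtain ⟨t, ht, rfl⟩ := hx
      obtain ⟨b, rfl⟩ := hroot a
      exact ⟨b • t, S.smul_mem b ht, hΦ b t⟩
  have hback : ∀ v, Φ v ∈ S → v ∈ S := fun v hv => by
    obtain ⟨t, ht, he⟩ := hpre _ hv
    rwa [← hinj he]
  have hfwd : ∀ s ∈ S, Φ s ∈ S := by
    intro s hs
    induction hs using Submodule.span_induction with
    | mem x hx => rw [show Φ x = x from hx]; exact Submodule.subset_span hx
    | zero => rw [map_zero]; exact S.zero_mem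
    | add x y _ _ hx hy => rw [map_add]; exact S.add_mem hx hy
    | smul a x _ hx => rw [hΦ]; exact S.smul_mem _ hx
  -- corrections by Artin-Schreier equations
  have hfix : ∀ w, Φ w - w ∈ S → w ∈ S := by
    have key : ∀ s ∈ S, ∃ t ∈ S, t - Φ t = s := by
      intro s hs
      obtain ⟨k, hk⟩ : ∃ k : {v // Φ v = v} →₀ K, k.sum (fun i c => c • (i : V)) = s := by
        have : s ∈ Submodule.span K (Set.range fun i : {v // Φ v = v} => (i : V)) := by
          rwa [Subtype.range_coe_subtype]
        exact Finsupp.mem_span_range_iff_exists_finsupp.1 this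
      have hAS : ∀ c : K, ∃ x : K, x - x ^ q = c := by
        intro c
        obtain ⟨x, hx⟩ := IsAlgClosed.exists_root (X ^ q - (X - C c)) (by
          have h1 : (X - C c).natDegree < (X ^ q : K[X]).natDegree := by
            rw [natDegree_X_sub_C, natDegree_X_pow]; omega
          have h2 := natDegree_sub_eq_left_of_natDegree_lt h1
          rw [natDegree_X_pow] at h2
          exact fun h => by rw [natDegree_eq_zero_iff_degree_le_zero.2 h.le] at h2; omega)
        refine ⟨x, ?_⟩
        simp [IsRoot] at hx
        linear_combination -hx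
      choose x hx using hAS
      refine ⟨∑ i ∈ k.support, x (k i) • (i : V), ?_, ?_⟩
      · exact S.sum_mem fun i _ => S.smul_mem _ (Submodule.subset_span i.2)
      · rw [map_sum, ← Finset.sum_sub_distrib, ← hk, Finsupp.sum]
        refine Finset.sum_congr rfl fun i _ => ?_
        rw [hΦ, i.2, ← sub_smul, hx]
    intro w hw
    obtain ⟨t, ht, he⟩ := key _ hw
    have h : Φ (w + t) = w + t := by
      rw [map_add]
      have : Φ w = w + (t - Φ t) := by rw [he]; abel
      rw [this]; abel
    simpa using S.sub_mem (Submodule.subset_span h) ht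
  rw [eq_top_iff]
  intro v _
  by_contra hv
  let u : ℕ → V := fun i => (⇑Φ)^[i] v
  have hu : ∀ i, Φ (u i) = u (i + 1) := fun i => (Function.iterate_succ_apply' _ _ _).symm
  let U : ℕ → Submodule K V := fun k => S ⊔ Submodule.span K (u '' Set.Iio k)
  obtain ⟨k, hk⟩ : ∃ k, u k ∈ U k := by
    by_contra h
    push Not at h
    have hlt : ∀ k, U k < U (k + 1) := by
      intro k
      refine lt_of_le_of_ne (sup_le_sup_left (Submodule.span_mono (Set.image_mono (Set.Iio_subset_Iio k.le_succ))) _) ?_
      intro he
      exact h k (he ▸ Submodule.mem_sup_right (Submodule.subset_span ⟨k, Nat.lt_succ_self k, rfl⟩))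
    have hgrow : ∀ k, k ≤ Module.finrank K (U k) := by
      intro k
      induction k with
      | zero => exact Nat.zero_le _
      | succ k ih => exact Nat.lt_of_le_of_lt ih (Submodule.finrank_lt_finrank_of_lt (hlt k))
    have := hgrow (Module.finrank K V + 1)
    have := Submodule.finrank_le (U (Module.finrank K V + 1))
    omega
  have hex : ∃ k, u k ∈ U k := ⟨k, hk⟩
  obtain ⟨k, hk, hmin⟩ : ∃ k, u k ∈ U k ∧ ∀ j < k, u j ∉ U j := ⟨Nat.find hex, Nat.find_spec hex, fun j hj => Nat.find_min hex hj⟩
  -- independence modulo the span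
  have hind : ∀ c : ℕ → K, ∀ j, j ≤ k → ∑ i ∈ Finset.range j, c i • u i ∈ S → ∀ i < j, c i = 0 := by
    intro c j
    induction j with
    | zero => intro _ _ i hi; omega
    | succ j ih =>
      intro hj hs i hi
      rw [Finset.sum_range_succ] at hs
      have hcj : c j = 0 := by
        by_contra hcj
        apply hmin j (by omega)
        have h1 : c j • u j ∈ U j := by
          have : c j • u j = (∑ i ∈ Finset.range j, c i • u i + c j • u j) - ∑ i ∈ Finset.range j, c i • u i := by abel
          rw [this]
          refine (U j).sub_mem (Submodule.mem_sup_left hs) (Submodule.mem_sup_right ?_)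
          exact Submodule.sum_mem _ fun i hi => Submodule.smul_mem _ _
            (Submodule.subset_span ⟨i, Finset.mem_range.1 hi, rfl⟩)
        exact ((U j).smul_mem_iff hcj).1 h1
      rw [hcj, zero_smul, add_zero] at hs
      rcases Nat.lt_succ_iff_lt_or_eq.1 hi with h | h
      · exact ih (by omega) hs i h
      · rw [h]; exact hcj
  obtain ⟨a, s, hs, hrel⟩ : ∃ a : ℕ → K, ∃ s ∈ S, u k = s + ∑ i ∈ Finset.range k, a i • u i := by
    obtain ⟨s, hs, r, hr, he⟩ := Submodule.mem_sup.1 hk
    obtain ⟨l, hl, rfl⟩ := (Finsupp.mem_span_image_iff_linearCombination K).1 hr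
    refine ⟨l, s, hs, ?_⟩
    rw [← he, Finsupp.linearCombination_apply, Finsupp.sum_of_support_subset l (s := Finset.range k)
      (fun i hi => Finset.mem_range.2 ((Finsupp.mem_supported K l).1 hl hi)) (fun i c => c • u i) (fun i _ => zero_smul K _)]
  have hkpos : 0 < k := by
    by_contra h0
    obtain rfl : k = 0 := by omega
    rw [Finset.sum_range_zero, add_zero] at hrel
    exact hv (show v ∈ S by rw [show v = s from hrel]; exact hs)
  obtain ⟨l, rfl⟩ : ∃ l, k = l + 1 := ⟨k - 1, by omega⟩
  have ha0 : a 0 ≠ 0 := by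
    intro h0
    choose b hb using hroot
    have h1 : Φ (u l - ∑ i ∈ Finset.range l, b (a (i + 1)) • u i) ∈ S := by
      have : Φ (u l - ∑ i ∈ Finset.range l, b (a (i + 1)) • u i) = s := by
        rw [map_sub, hu, map_sum, hrel, Finset.sum_range_succ', h0, zero_smul, add_zero]
        have : ∀ i, Φ (b (a (i + 1)) • u i) = a (i + 1) • u (i + 1) := fun i => by rw [hΦ, hb, hu]
        simp only [this]
        abel
      rw [this]; exact hs
    let c : ℕ → K := fun i => if i = l then 1 else -b (a (i + 1))
    have h2 : ∑ i ∈ Finset.range (l + 1), c i • u i ∈ S := by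
      have e : ∑ i ∈ Finset.range (l + 1), c i • u i = u l - ∑ i ∈ Finset.range l, b (a (i + 1)) • u i := by
        rw [Finset.sum_range_succ, show c l = 1 from if_pos rfl, one_smul]
        have : ∀ i ∈ Finset.range l, c i • u i = -(b (a (i + 1)) • u i) := fun i hi => by
          rw [show c i = -b (a (i + 1)) from if_neg (Finset.mem_range.1 hi).ne, neg_smul]
        rw [Finset.sum_congr rfl this, Finset.sum_neg_distrib]; abel
      rw [e]; exact hback _ h1
    have := hind c (l + 1) le_rfl h2 l (by omega)
    rw [show c l = 1 from if_pos rfl] at this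
    exact one_ne_zero this
  -- coefficients: polynomials in the top one
  let P : ℕ → K[X] := fun i => Nat.rec (C (a 0) * X ^ q) (fun j r => r ^ q + C (a (j + 1)) * X ^ q) i
  have P0 : P 0 = C (a 0) * X ^ q := rfl
  have Ps : ∀ j, P (j + 1) = P j ^ q + C (a (j + 1)) * X ^ q := fun j => rfl
  have hdeg : ∀ i, (P i).natDegree = q ^ (i + 1) := by
    intro i
    induction i with
    | zero => rw [P0, natDegree_C_mul_X_pow q _ ha0, pow_one]
    | succ j ih =>
      rw [Ps]
      have h1 : (P j ^ q).natDegree = q ^ (j + 1 + 1) := by rw [natDegree_pow, ih, ← pow_succ']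
      rw [natDegree_add_eq_left_of_natDegree_lt, h1]
      refine lt_of_le_of_lt (natDegree_C_mul_X_pow_le _ _) ?_
      rw [h1]
      exact lt_of_lt_of_le (by nlinarith) (Nat.pow_le_pow_right (by omega) (show 2 ≤ j + 1 + 1 by omega))
  have hdvd : ∀ i, X ^ 2 ∣ P i := by
    intro i
    induction i with
    | zero => rw [P0]; exact Dvd.dvd.mul_left (pow_dvd_pow X hq) _
    | succ j ih =>
      rw [Ps]
      exact dvd_add (ih.trans (dvd_pow_self _ (by omega))) (Dvd.dvd.mul_left (pow_dvd_pow X hq) _)
  obtain ⟨R, hR⟩ := hdvd l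
  obtain ⟨c, hc⟩ : ∃ c, IsRoot (X * R - 1) c := by
    refine IsAlgClosed.exists_root _ ?_
    have hd := hdeg l
    have hR0 : R ≠ 0 := fun h => by
      rw [hR, h, mul_zero, natDegree_zero] at hd
      exact absurd hd.symm (by positivity)
    intro h
    have h1 : (X * R - 1).natDegree = 0 := natDegree_eq_zero_iff_degree_le_zero.2 h.le
    have hXR : (X * R).natDegree = R.natDegree + 1 := natDegree_X_mul hR0
    rw [natDegree_sub_eq_left_of_natDegree_lt (by rw [natDegree_one, hXR]; omega), hXR] at h1
    omega
  have hc0 : c ≠ 0 := fun h => by simp [IsRoot, h] at hc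
  have hPl : (P l).eval c = c := by
    rw [hR]
    simp [IsRoot] at hc
    simp only [eval_mul, eval_pow, eval_X]
    linear_combination c * hc
  let e : ℕ → K := fun i => (P i).eval c
  have e0 : e 0 = a 0 * c ^ q := by simp [e, P0]
  have es : ∀ i, e (i + 1) = e i ^ q + a (i + 1) * c ^ q := fun i => by simp [e, Ps]
  let w := ∑ i ∈ Finset.range (l + 1), e i • u i
  have hw : w ∈ S := by
    refine hfix w ?_
    have h1 : Φ w = ∑ i ∈ Finset.range l, e i ^ q • u (i + 1) + c ^ q • (s + ∑ i ∈ Finset.range (l + 1), a i • u i) := by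
      rw [map_sum, Finset.sum_range_succ, ← hrel]
      congr 1
      · exact Finset.sum_congr rfl fun i _ => by rw [hΦ, hu]
      · rw [hΦ, hu, show e l = c from hPl]
    have h2 : w = ∑ i ∈ Finset.range l, (e i ^ q + a (i + 1) * c ^ q) • u (i + 1) + (a 0 * c ^ q) • u 0 := by
      show ∑ i ∈ Finset.range (l + 1), e i • u i = _
      rw [Finset.sum_range_succ', e0]
      simp only [es]
    have h3 : Φ w - w = c ^ q • s := by
      rw [h1, h2]
      simp only [Finset.sum_range_succ', smul_add, Finset.smul_sum, add_smul, Finset.sum_add_distrib, smul_smul]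
      simp only [mul_comm (c ^ q)]
      abel
    rw [h3]; exact S.smul_mem _ hs
  exact hc0 ((show e l = c from hPl) ▸ hind e (l + 1) le_rfl hw l (by omega))

end CfsgLib.Linear.SemilinearFixed
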