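import Mathlib

/-! Three points of the projective line. -/
set_option autoImplicit false
open scoped Matrix

namespace CfsgLib.Linear.Triple

variable {F : Type*} [Field F]

local notation "P" => Projectivization F (Fin 2 → F)

noncomputable def p0 : P := Projectivization.mk F ![1, 0] (by simp)
noncomputable def p1 : P := Projectivization.mk F ![0, 1] (by simp)
noncomputable def p2 : P := Projectivization.mk F ![1, 1] (by simp)

theorem exists_GL_triple {a b c : P} (hab : a ≠ b) (hac : a ≠ c) (hbc : b ≠ c) :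
    ∃ g : GL (Fin 2) F, g • p0 = a ∧ g • p1 = b ∧ g • p2 = c := by
  induction a using Projectivization.ind with | _ u hu =>
  induction b using Projectivization.ind with | _ v hv =>
  induction c using Projectivization.ind with | _ w hw =>
  have hdet : u 0 * v 1 - u 1 * v 0 ≠ 0 := by
    intro h0
    apply hab
    rw [Projectivization.mk_eq_mk_iff']
    by_cases h : v 0 = 0
    · have hv1 : v 1 ≠ 0 := fun h1 => hv (by ext i; fin_cases i <;> assumption)
      refine ⟨u 1 / v 1, ?_⟩
      have : u 0 = 0 := by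
        rw [h, mul_zero, sub_zero] at h0
        exact (mul_eq_zero.1 h0).resolve_right hv1
      ext i; fin_cases i <;> simp [h, this, hv1]
    · refine ⟨u 0 / v 0, ?_⟩
      ext i; fin_cases i <;> simp
      · field_simp
      · field_simp; linear_combination h0
  set α := (w 0 * v 1 - w 1 * v 0) / (u 0 * v 1 - u 1 * v 0) with hαd
  set β := (u 0 * w 1 - u 1 * w 0) / (u 0 * v 1 - u 1 * v 0) with hβd
  have hw' : w = α • u + β • v := by
    ext i; fin_cases i <;> simp [hαd, hβd] <;>
      first
      | (rw [div_mul_eq_mul_div, div_mul_eq_mul_div, ← add_div, eq_div_iff hdet]; ring)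
  have hα : α ≠ 0 := by
    intro h0; apply hbc
    rw [eq_comm, Projectivization.mk_eq_mk_iff']
    exact ⟨β, by rw [hw', h0, zero_smul, zero_add]⟩
  have hβ : β ≠ 0 := by
    intro h0; apply hac
    rw [eq_comm, Projectivization.mk_eq_mk_iff']
    exact ⟨α, by rw [hw', h0, zero_smul, add_zero]⟩
  refine ⟨Matrix.GeneralLinearGroup.mkOfDetNeZero !![α * u 0, β * v 0; α * u 1, β * v 1] (by
    rw [Matrix.det_fin_two_of]
    rw [show α * u 0 * (β * v 1) - β * v 0 * (α * u 1) = (α * β) * (u 0 * v 1 - u 1 * v 0) by ring]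
    exact mul_ne_zero (mul_ne_zero hα hβ) hdet), ?_, ?_, ?_⟩
  all_goals
    simp only [p0, p1, p2, Projectivization.smul_mk, Projectivization.mk_eq_mk_iff']
  · refine ⟨α, ?_⟩
    ext i; fin_cases i <;> simp [Units.smul_def, Matrix.smul_eq_mulVec, Matrix.mulVec, dotProduct, Fin.sum_univ_two]
  · refine ⟨β, ?_⟩
    ext i; fin_cases i <;> simp [Units.smul_def, Matrix.smul_eq_mulVec, Matrix.mulVec, dotProduct, Fin.sum_univ_two]
  · refine ⟨1, ?_⟩
    ext i; fin_cases i <;> simp [hw', Units.smul_def, Matrix.smul_eq_mulVec, Matrix.mulVec, dotProduct, Fin.sum_univ_two]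

theorem fix_std (g : GL (Fin 2) F) (h0 : g • (p0 : P) = p0) (h1 : g • (p1 : P) = p1) (h2 : g • (p2 : P) = p2) :
    ∃ r : Fˣ, g = Matrix.GeneralLinearGroup.scalar (Fin 2) r := by
  simp only [p0, p1, p2, Projectivization.smul_mk, Projectivization.mk_eq_mk_iff'] at h0 h1 h2
  obtain ⟨a, ha⟩ := h0
  obtain ⟨b, hb⟩ := h1
  obtain ⟨c, hc⟩ := h2
  have a0 := congrFun ha 0; have a1 := congrFun ha 1
  have b0 := congrFun hb 0; have b1 := congrFun hb 1
  have c0 := congrFun hc 0; have c1 := congrFun hc 1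
  simp [Units.smul_def, Matrix.smul_eq_mulVec, Matrix.mulVec, dotProduct, Fin.sum_univ_two] at a0 a1 b0 b1 c0 c1
  have hd := ((Matrix.isUnit_iff_isUnit_det _).1 g.isUnit).ne_zero
  rw [Matrix.det_fin_two, ← a1, ← b0] at hd
  simp at hd
  refine ⟨Units.mk0 _ hd.1, Units.ext ?_⟩
  ext i j
  fin_cases i <;> fin_cases j <;> simp [← a1, ← b0] <;> grind

end CfsgLib.Linear.Triple
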